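import Cfsg.Agent.H85.UniqMain
import Cfsg.Agent.H51.SigUniqCubic
import Cfsg.Agent.H49.SigUniq.Small
import Cfsg.Agent.H7.Uniq.Three

/-!
Uniqueness of maximal members at the primes two and three, with all module lemmas discharged.
-/

set_option autoImplicit false

universe u

namespace Cfsg.Agent.H85.Uniq

/-- The uniqueness property at the primes two and three holds in every setting. -/
theorem uniqSmall {p : ℕ} [Fact p.Prime] (hp2 : p ≠ 2) : H51.SigFun.UniqSmall.{u} p := by
  refine uniqSmall_of_lemmas hp2 ?_ ?_ H7.Uniq.noPlane_three H7.Uniq.noPlaneAny_three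
  · intro v hv
    haveI : Fact v.Prime := ⟨by rcases hv with rfl | rfl <;> norm_num⟩
    exact H51.cubicBound v
  · intro v hv
    rcases hv with rfl | rfl
    · exact H49.SigUniq.noSmall_two
    · exact H7.Uniq.noSmall_three

end Cfsg.Agent.H85.Uniq
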