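import Mathlib
import Cfsg.Agent.H19.Frattini
import Cfsg.Agent.H24.PGroupBasic
import Cfsg.Agent.H82.SubgroupCount

/-!
Vaughan-Lee's bound on the derived subgroup of a finite `p`-group whose classes have size at most
`p ^ b`, by induction on a stronger statement: only the elements outside a fixed maximal subgroup
need small breadth.
-/

set_option autoImplicit false

namespace Cfsg.Agent.H85

open Subgroup
open scoped commutatorElement

variable {G : Type*} [Group G]

/-- A subgroup of prime index is maximal. -/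
theorem isCoatom_of_index_eq_prime [Finite G] {p : ℕ} (hp : p.Prime) {M : Subgroup G}
    (hM : M.index = p) : IsCoatom M := by
  refine ⟨fun h => hp.one_lt.ne' (by rw [← hM, h, index_top]), fun L hL => ?_⟩
  have hdvd : L.index ∣ M.index := index_dvd_of_le hL.le
  rw [hM] at hdvd
  rcases hp.eq_one_or_self_of_dvd _ hdvd with h | h
  · exact index_eq_one.1 h
  · exfalso
    have h1 := relIndex_mul_index hL.le
    rw [h, hM] at h1
    have h2 : M.relIndex L = 1 := Nat.eq_of_mul_eq_mul_right hp.pos (by rw [h1, one_mul])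
    exact hL.not_ge (relIndex_eq_one.1 h2)

/-- The number of maximal subgroups above a proper normal subgroup of a `p`-group is `1` mod `p`. -/
theorem card_coatoms_above_modEq_one [Finite G] {p : ℕ} [hp : Fact p.Prime] (hG : IsPGroup p G)
    (X : Subgroup G) [X.Normal] (hX : X ≠ ⊤) :
    Nat.card {M : Subgroup G // IsCoatom M ∧ X ≤ M} ≡ 1 [MOD p] := by
  haveI := hG.isNilpotent
  obtain ⟨m, hm⟩ := IsPGroup.iff_card.1 (hG.to_quotient X)
  have hm0 : m ≠ 0 := by
    rintro rfl
    apply hX
    rw [← index_eq_one, index_eq_card, hm, pow_zero]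
  obtain ⟨n, rfl⟩ := Nat.exists_eq_succ_of_ne_zero hm0
  set q := QuotientGroup.mk' X with hq
  have hqs : Function.Surjective q := QuotientGroup.mk'_surjective X
  have hker : q.ker = X := QuotientGroup.ker_mk' X
  have hidx : ∀ M : Subgroup G, IsCoatom M → X ≤ M → (M.map q).index = p := fun M hM hXM => by
    rw [index_map_eq M hqs (hker.le.trans hXM), H19.index_coatom_of_isPGroup hG hM]
  let e : {M : Subgroup G // IsCoatom M ∧ X ≤ M} ≃
      {H : Subgroup (G ⧸ X) // H.Normal ∧ Nat.card H = p ^ n} :=
    { toFun := fun M => ⟨M.1.map q,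
        (H19.coatom_normal_of_nilpotent M.2.1).map q hqs, by
        have h := card_mul_index (M.1.map q)
        rw [hidx M.1 M.2.1 M.2.2, hm, pow_succ] at h
        exact Nat.eq_of_mul_eq_mul_right hp.out.pos h⟩
      invFun := fun H => ⟨H.1.comap q, by
        apply isCoatom_of_index_eq_prime hp.out
        have h := card_mul_index H.1
        rw [H.2.2, hm, pow_succ] at h
        rw [index_comap_of_surjective _ hqs]
        exact Nat.eq_of_mul_eq_mul_left (pow_pos hp.out.pos n) h, by
        exact hker.ge.trans (ker_le_comap q H.1)⟩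
      left_inv := fun M => Subtype.ext (by
        simp only
        rw [comap_map_eq, hker, sup_eq_left.2 M.2.2])
      right_inv := fun H => Subtype.ext (by
        simp only
        exact map_comap_eq_self_of_surjective hqs _) }
  rw [Nat.card_congr e]
  exact H82.card_normal_subgroups_modEq_one hp.out hm (Nat.le_succ n)

/-- If `A` is an abelian normal subgroup and `G = A⟨a⟩`, the derived subgroup has at most as many
elements as the class of `a`. -/
theorem card_commutator_le_of_abelian_normal [Finite G] (A : Subgroup G) [hAn : A.Normal]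
    (hA : ∀ x ∈ A, ∀ y ∈ A, x * y = y * x) (a : G) (hsup : A ⊔ zpowers a = ⊤) :
    Nat.card ↥(commutator G) ≤ (centralizer ({a} : Set G)).index := by
  have hmem : ∀ x : G, x ∈ A → ⁅x, a⁆ ∈ A := fun x hx => by
    have h : ⁅x, a⁆ = x * (a * x⁻¹ * a⁻¹) := by rw [commutatorElement_def]; group
    rw [h]
    exact A.mul_mem hx (hAn.conj_mem _ (A.inv_mem hx) a)
  let f : ↥A →* G :=
    { toFun := fun x => ⁅(x : G), a⁆
      map_one' := by simp [commutatorElement_def]
      map_mul' := fun x y => by
        have h : ⁅((x * y : ↥A) : G), a⁆ = ((x : G) * ⁅(y : G), a⁆ * (x : G)⁻¹) * ⁅(x : G), a⁆ := by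
          rw [commutatorElement_def, commutatorElement_def, commutatorElement_def, Subgroup.coe_mul]
          group
        rw [h, hA _ x.2 _ (hmem _ y.2), mul_inv_cancel_right]
        exact hA _ (hmem _ y.2) _ (hmem _ x.2) }
  have hfA : f.range ≤ A := by
    rintro _ ⟨x, rfl⟩; exact hmem _ x.2
  have hnorm : f.range.Normal := by
    rw [← normalizer_eq_top_iff, eq_top_iff, ← hsup, sup_le_iff]
    refine ⟨fun g hg => ?_, ?_⟩
    · rw [mem_normalizer_iff]
      intro n
      constructor
      · intro hn
        rw [hA g hg n (hfA hn), mul_inv_cancel_right]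
        exact hn
      · intro hn
        have hnA : n ∈ A := by
          have := hAn.conj_mem _ (hfA hn) g⁻¹
          simpa [mul_assoc] using this
        rw [hA g hg n hnA, mul_inv_cancel_right] at hn
        exact hn
    · rw [zpowers_le, mem_normalizer_iff]
      have hstep : ∀ n : G, n ∈ f.range → a * n * a⁻¹ ∈ f.range := by
        rintro _ ⟨x, rfl⟩
        refine ⟨⟨a * x * a⁻¹, hAn.conj_mem _ x.2 a⟩, ?_⟩
        show ⁅a * (x : G) * a⁻¹, a⁆ = a * ⁅(x : G), a⁆ * a⁻¹
        rw [commutatorElement_def, commutatorElement_def]; group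
      have hfin : ((fun n => a * n * a⁻¹) '' (f.range : Set G)) = f.range := by
        apply Set.eq_of_subset_of_ncard_le
        · rintro _ ⟨n, hn, rfl⟩; exact hstep n hn
        · rw [Set.ncard_image_of_injective]
          intro x y h; simpa using h
        · exact Set.toFinite _
      intro n
      refine ⟨hstep n, fun hn => ?_⟩
      have h2 : a * n * a⁻¹ ∈ ((fun n => a * n * a⁻¹) '' (f.range : Set G)) := hfin.symm ▸ hn
      obtain ⟨n', hn', h'⟩ := h2
      have : n' = n := by simpa using h'
      exact this ▸ hn'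
  have hle : commutator G ≤ f.range := by
    haveI := hnorm
    set q := QuotientGroup.mk' f.range with hq
    have hqs : Function.Surjective q := QuotientGroup.mk'_surjective _
    have hxa : ∀ x ∈ A, q x * q a = q a * q x := by
      intro x hx
      rw [← commutatorElement_eq_one_iff_mul_comm, ← map_commutatorElement]
      exact (QuotientGroup.eq_one_iff _).2 ⟨⟨x, hx⟩, rfl⟩
    have hcen : ∀ g : G, q g ∈ center (G ⧸ f.range) := by
      have h1 : ∀ x ∈ A, q x ∈ centralizer (((A ⊔ zpowers a).map q : Subgroup (G ⧸ f.range)) : Set (G ⧸ f.range)) := by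
        intro x hx
        rw [← zpowers_le, Subgroup.le_centralizer_iff, Subgroup.map_sup, sup_le_iff]
        refine ⟨?_, ?_⟩
        · rintro _ ⟨y, hy, rfl⟩
          rw [mem_centralizer_iff]
          rintro _ ⟨i, rfl⟩
          have : Commute (q x) (q y) := by
            show q x * q y = q y * q x
            rw [← map_mul, ← map_mul, hA x hx y hy]
          exact this.zpow_left i
        · rw [MonoidHom.map_zpowers, zpowers_le, mem_centralizer_iff]
          rintro _ ⟨i, rfl⟩
          exact (show Commute (q x) (q a) from hxa x hx).zpow_left i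
      have h2 : q a ∈ centralizer (((A ⊔ zpowers a).map q : Subgroup (G ⧸ f.range)) : Set (G ⧸ f.range)) := by
        rw [← zpowers_le, Subgroup.le_centralizer_iff, Subgroup.map_sup, sup_le_iff]
        refine ⟨?_, ?_⟩
        · rintro _ ⟨y, hy, rfl⟩
          rw [mem_centralizer_iff]
          rintro _ ⟨i, rfl⟩
          exact ((show Commute (q y) (q a) from hxa y hy).symm).zpow_left i
        · rw [MonoidHom.map_zpowers, zpowers_le, mem_centralizer_iff]
          rintro _ ⟨i, rfl⟩
          exact (Commute.refl (q a)).zpow_left i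
      rw [hsup, ← MonoidHom.range_eq_map, MonoidHom.range_eq_top.2 hqs, coe_top,
        centralizer_univ] at h1 h2
      intro g
      have hg : g ∈ (center (G ⧸ f.range)).comap q := by
        have : A ⊔ zpowers a ≤ (center (G ⧸ f.range)).comap q :=
          sup_le (fun x hx => h1 x hx) (zpowers_le.2 h2)
        exact this (hsup ▸ mem_top g)
      exact hg
    rw [_root_.commutator_def, commutator_le]
    intro g _ h _
    rw [← QuotientGroup.eq_one_iff]
    show q ⁅g, h⁆ = 1
    rw [map_commutatorElement, commutatorElement_eq_one_iff_mul_comm]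
    exact (mem_center_iff.1 (hcen g) (q h)).symm
  refine le_trans (Subgroup.card_le_of_le hle) ?_
  rw [← index_ker f]
  have hk : (centralizer ({a} : Set G)).subgroupOf A ≤ f.ker := by
    intro x hx
    rw [mem_subgroupOf, mem_centralizer_singleton_iff] at hx
    rw [MonoidHom.mem_ker]
    exact commutatorElement_eq_one_iff_mul_comm.2 hx
  refine le_trans (Nat.le_of_dvd (Nat.pos_of_ne_zero
    (show ((centralizer ({a} : Set G)).subgroupOf A).index ≠ 0 from index_ne_zero_of_finite))
    (index_dvd_of_le hk)) ?_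
  show (centralizer ({a} : Set G)).relIndex A ≤ _
  rw [← relIndex_top_right (centralizer ({a} : Set G))]
  exact relIndex_le_of_le_right le_top (by rw [relIndex_top_right]; exact index_ne_zero_of_finite)

/-- The step `G = M⟨a⟩`: `|G'| ≤ |M'| · |a^G|`. -/
theorem card_commutator_le_step [Finite G] (M : Subgroup G) [M.Normal] (a : G)
    (hsup : M ⊔ zpowers a = ⊤) :
    Nat.card ↥(commutator G) ≤ Nat.card ↥⁅M, M⁆ * (centralizer ({a} : Set G)).index := by
  set q := QuotientGroup.mk' ⁅M, M⁆ with hq
  have hqs : Function.Surjective q := QuotientGroup.mk'_surjective _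
  haveI : (M.map q).Normal := (inferInstance : M.Normal).map q hqs
  have hab : ∀ x ∈ M.map q, ∀ y ∈ M.map q, x * y = y * x := by
    rintro _ ⟨x, hx, rfl⟩ _ ⟨y, hy, rfl⟩
    rw [← commutatorElement_eq_one_iff_mul_comm, ← map_commutatorElement]
    exact (QuotientGroup.eq_one_iff _).2 (commutator_mem_commutator hx hy)
  have hsup' : M.map q ⊔ zpowers (q a) = ⊤ := by
    rw [← MonoidHom.map_zpowers, ← Subgroup.map_sup, hsup, ← MonoidHom.range_eq_map,
      MonoidHom.range_eq_top.2 hqs]
  have h1 := card_commutator_le_of_abelian_normal (M.map q) hab (q a) hsup'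
  have h2 : (centralizer ({q a} : Set (G ⧸ ⁅M, M⁆))).index ≤ (centralizer ({a} : Set G)).index := by
    have hle : (centralizer ({a} : Set G)).map q ≤ centralizer ({q a} : Set (G ⧸ ⁅M, M⁆)) := by
      rintro _ ⟨x, hx, rfl⟩
      rw [SetLike.mem_coe, mem_centralizer_singleton_iff] at hx
      rw [mem_centralizer_singleton_iff, ← map_mul, ← map_mul, hx]
    refine Nat.le_of_dvd (Nat.pos_of_ne_zero index_ne_zero_of_finite) ?_
    exact (index_dvd_of_le hle).trans (index_map_dvd _ hqs)
  have hG' : commutator (G ⧸ ⁅M, M⁆) = (commutator G).map q := by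
    rw [_root_.commutator_def, _root_.commutator_def, map_commutator, ← MonoidHom.range_eq_map,
      MonoidHom.range_eq_top.2 hqs]
  have hker : q.ker = ⁅M, M⁆ := QuotientGroup.ker_mk' _
  have hle : ⁅M, M⁆ ≤ commutator G := by
    rw [_root_.commutator_def]; exact commutator_mono le_top le_top
  have h3 : Nat.card ↥((commutator G).map q) * Nat.card ↥⁅M, M⁆ = Nat.card ↥(commutator G) := by
    have := relIndex_ker (K := commutator G) q
    rw [hker] at this
    rw [← this, mul_comm, ← relIndex_bot_left, ← relIndex_bot_left]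
    exact relIndex_mul_relIndex _ _ _ bot_le hle
  rw [hG'] at h1
  rw [← h3, mul_comm (Nat.card ↥⁅M, M⁆)]
  exact Nat.mul_le_mul (h1.trans h2) le_rfl

section PGroup

variable [Finite G] {p : ℕ} [hp : Fact p.Prime]

/-- A proper normal subgroup of `G'` stays proper after enlarging to one with central elementary
abelian factor. -/
theorem exists_proper_central_elementary (hG : IsPGroup p G) (X : Subgroup G) [X.Normal]
    (hX : X ≤ commutator G) (hne : X ≠ commutator G) :
    ∃ D : Subgroup G, D.Normal ∧ X ≤ D ∧ D ≤ commutator G ∧ D ≠ commutator G ∧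
      (∀ c ∈ commutator G, ∀ g : G, ⁅c, g⁆ ∈ D) ∧ (∀ c ∈ commutator G, c ^ p ∈ D) := by
  obtain ⟨D, hD, hmax⟩ := Set.Finite.exists_maximal
    (Set.toFinite {D : Subgroup G | D.Normal ∧ X ≤ D ∧ D ≤ commutator G ∧ D ≠ commutator G})
    ⟨X, inferInstance, le_rfl, hX, hne⟩
  obtain ⟨hDn, hXD, hDG, hDne⟩ := hD
  haveI := hDn
  set q := QuotientGroup.mk' D with hq
  have hqs : Function.Surjective q := QuotientGroup.mk'_surjective D
  haveI : ((commutator G).map q).Normal := (inferInstance : (commutator G).Normal).map q hqs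
  have hC : (commutator G).map q ≠ ⊥ := by
    rw [ne_eq, Subgroup.map_eq_bot_iff, QuotientGroup.ker_mk']
    exact fun h => hDne (le_antisymm hDG h)
  have hmeet := H24.inf_center_ne_bot (hG.to_quotient D) hC
  obtain ⟨k, hk⟩ := IsPGroup.iff_card.1
    ((hG.to_quotient D).to_subgroup ((commutator G).map q ⊓ center (G ⧸ D)))
  have hk0 : k ≠ 0 := by
    rintro rfl
    exact hmeet (Subgroup.card_eq_one.1 (by simpa using hk))
  obtain ⟨z, hz⟩ := exists_prime_orderOf_dvd_card' (G := ↥((commutator G).map q ⊓ center (G ⧸ D))) p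
    (hk ▸ dvd_pow_self p hk0)
  have hzo : orderOf (z : G ⧸ D) = p := by rw [Subgroup.orderOf_coe]; exact hz
  have hzC : (z : G ⧸ D) ∈ (commutator G).map q := (mem_inf.1 z.2).1
  have hzZ : (z : G ⧸ D) ∈ center (G ⧸ D) := (mem_inf.1 z.2).2
  have hZn : (zpowers (z : G ⧸ D)).Normal :=
    ⟨fun n hn g => by
      have : n ∈ center (G ⧸ D) := (zpowers_le.2 hzZ) hn
      rw [mem_center_iff.1 this g, mul_inv_cancel_right]
      exact hn⟩
  set E := (zpowers (z : G ⧸ D)).comap q with hE
  have hEG : E = commutator G := by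
    by_contra hne'
    have hEle : E ≤ commutator G := by
      refine (comap_mono (zpowers_le.2 hzC)).trans ?_
      rw [comap_map_eq, QuotientGroup.ker_mk', sup_eq_left.2 hDG]
    have hDE : D ≤ E := fun x hx => by
      show q x ∈ zpowers (z : G ⧸ D)
      rw [show q x = 1 from (QuotientGroup.eq_one_iff x).2 hx]
      exact one_mem _
    have hEn : E.Normal := hZn.comap q
    have := hmax ⟨hEn, hXD.trans hDE, hEle, hne'⟩ hDE
    obtain ⟨y, hy⟩ := hqs (z : G ⧸ D)
    have hyE : y ∈ E := by show q y ∈ zpowers (z : G ⧸ D); rw [hy]; exact mem_zpowers _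
    have : (z : G ⧸ D) = 1 := hy ▸ (QuotientGroup.eq_one_iff y).2 (this hyE)
    rw [this, orderOf_one] at hzo
    exact hp.out.one_lt.ne hzo
  refine ⟨D, hDn, hXD, hDG, hDne, fun c hc g => ?_, fun c hc => ?_⟩
  · have hcc : q c ∈ center (G ⧸ D) := (zpowers_le.2 hzZ) (by rw [← hEG] at hc; exact hc)
    apply (QuotientGroup.eq_one_iff _).1
    show q ⁅c, g⁆ = 1
    rw [map_commutatorElement, commutatorElement_eq_one_iff_mul_comm]
    exact (mem_center_iff.1 hcc (q g)).symm
  · have hcc : q c ∈ zpowers (z : G ⧸ D) := by rw [← hEG] at hc; exact hc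
    apply (QuotientGroup.eq_one_iff _).1
    show q (c ^ p) = 1
    rw [map_pow, ← orderOf_dvd_iff_pow_eq_one, ← hzo]
    exact orderOf_dvd_of_mem_zpowers hcc

/-- The normal subgroups of index `p ^ 2` with elementary abelian factor group which, commutated
with `G`, give less than `G'`. -/
def IsBad (p : ℕ) (R : Subgroup G) : Prop :=
  commutator G ≤ R ∧ (∀ x : G, x ^ p ∈ R) ∧ R.index = p ^ 2 ∧ ⁅R, (⊤ : Subgroup G)⁆ ≠ commutator G

/-- A coatom of a finite `p`-group contains the commutators and the `p`-th powers. -/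
theorem coatom_contains (hG : IsPGroup p G) {M : Subgroup G} (hM : IsCoatom M) :
    commutator G ≤ M ∧ ∀ x : G, x ^ p ∈ M :=
  ⟨(H19.commutator_pow_mem_frattini hG).1.trans (frattini_le_coatom hM),
    fun x => frattini_le_coatom hM ((H19.commutator_pow_mem_frattini hG).2 x)⟩

/-- Adjoining an element outside a bad subgroup gives a maximal subgroup. -/
theorem isCoatom_bad_sup {R : Subgroup G} (hc : commutator G ≤ R) (hpow : ∀ x : G, x ^ p ∈ R)
    (hidx : R.index = p ^ 2) {a : G} (ha : a ∉ R) : IsCoatom (R ⊔ zpowers a) := by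
  haveI : R.Normal := Normal.of_commutator_le _ hc
  apply isCoatom_of_index_eq_prime hp.out
  have h1 := H19.relIndex_sup_zpowers R hp.out (hpow a) ha
  have h2 := relIndex_mul_index (le_sup_left : R ≤ R ⊔ zpowers a)
  rw [h1, hidx, pow_two] at h2
  exact Nat.eq_of_mul_eq_mul_left hp.out.pos h2

/-- Two distinct maximal subgroups over a subgroup of index `p ^ 2` meet exactly in it. -/
theorem inf_eq_of_index (hG : IsPGroup p G) {J M R : Subgroup G} (hJ : IsCoatom J)
    (hM : IsCoatom M) (hne : J ≠ M) (hRJ : R ≤ J) (hRM : R ≤ M) (hidx : R.index = p ^ 2) :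
    J ⊓ M = R := by
  haveI := hG.isNilpotent
  haveI := H19.coatom_normal_of_nilpotent hM
  have htop : J ⊔ M = ⊤ := hJ.2 _ (left_lt_sup.2 fun h => hne ((hM.le_iff.1 h).resolve_left hJ.1))
  have h1 : (J ⊓ M).relIndex J = p := by
    rw [inf_relIndex_left, ← relIndex_sup_right J M, htop, relIndex_top_right,
      H19.index_coatom_of_isPGroup hG hM]
  have h2 := relIndex_mul_index (inf_le_left : J ⊓ M ≤ J)
  rw [h1, H19.index_coatom_of_isPGroup hG hJ, ← pow_two, ← hidx] at h2
  have h3 := relIndex_mul_index (le_inf hRJ hRM)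
  rw [← h2] at h3
  have h4 : R.relIndex (J ⊓ M) = 1 :=
    Nat.eq_of_mul_eq_mul_right (Nat.pos_of_ne_zero (show R.index ≠ 0 from index_ne_zero_of_finite))
      (by rw [h3, one_mul])
  exact le_antisymm (relIndex_eq_one.1 h4) (le_inf hRJ hRM)

/-- If `R` is central modulo `⁅R, G⁆`, a cyclic extension of `R` is abelian modulo it. -/
theorem commutator_sup_zpowers_le {R : Subgroup G} [R.Normal] (m : G) :
    ⁅R ⊔ zpowers m, R ⊔ zpowers m⁆ ≤ ⁅R, (⊤ : Subgroup G)⁆ := by
  set q := QuotientGroup.mk' ⁅R, (⊤ : Subgroup G)⁆ with hq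
  have hcen : ∀ r ∈ R, ∀ g : G, q r * q g = q g * q r := fun r hr g => by
    rw [← commutatorElement_eq_one_iff_mul_comm, ← map_commutatorElement]
    exact (QuotientGroup.eq_one_iff _).2 (commutator_mem_commutator hr (mem_top g))
  rw [commutator_le]
  intro x hx y hy
  obtain ⟨r, hr, u, ⟨i, rfl⟩, rfl⟩ := mem_sup_of_normal_left.1 hx
  obtain ⟨s, hs, v, ⟨j, rfl⟩, rfl⟩ := mem_sup_of_normal_left.1 hy
  apply (QuotientGroup.eq_one_iff _).1
  show q ⁅r * m ^ i, s * m ^ j⁆ = 1
  rw [map_commutatorElement, commutatorElement_eq_one_iff_mul_comm]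
  show Commute (q (r * m ^ i)) (q (s * m ^ j))
  rw [map_mul, map_mul]
  have hmm : Commute (q (m ^ i)) (q (m ^ j)) := by
    rw [map_zpow, map_zpow]; exact Commute.zpow_zpow (Commute.refl _) i j
  exact ((show Commute (q r) (q s) from hcen r hr s).mul_right (hcen r hr _)).mul_left
    ((show Commute (q (m ^ i)) (q s) from (hcen s hs _).symm).mul_right hmm)

/-- Below a maximal subgroup whose derived subgroup is less than `G'`, the number of bad subgroups
is `1` modulo `p`. -/
theorem card_bad_below_modEq_one (hG : IsPGroup p G) {M : Subgroup G} (hM : IsCoatom M)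
    (hMM : ⁅M, M⁆ ≠ commutator G) :
    Nat.card {R : Subgroup G // IsBad p R ∧ R ≤ M} ≡ 1 [MOD p] := by
  haveI := hG.isNilpotent
  haveI := H19.coatom_normal_of_nilpotent hM
  obtain ⟨a, -, haM⟩ := SetLike.exists_of_lt (lt_top_iff_ne_top.2 hM.1)
  have htop : M ⊔ zpowers a = ⊤ :=
    hM.2 _ (left_lt_sup.2 fun h => haM (h (mem_zpowers a)))
  have hcG : ⁅M, M⁆ ≤ commutator G := by
    rw [_root_.commutator_def]; exact commutator_mono le_top le_top
  set S : Set G := {z | ∃ c ∈ commutator G, ∃ g : G, z = ⁅c, g⁆} ∪ {z | ∃ c ∈ commutator G, z = c ^ p}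
    with hS
  set N := ⁅M, M⁆ ⊔ normalClosure S with hN
  obtain ⟨D, hDn, hMD, hDG, hDne, hD1, hD2⟩ := exists_proper_central_elementary hG ⁅M, M⁆ hcG hMM
  have hND : N ≤ D := sup_le hMD (normalClosure_le_normal (by
    rintro z (⟨c, hc, g, rfl⟩ | ⟨c, hc, rfl⟩)
    · exact hD1 c hc g
    · exact hD2 c hc))
  set q := QuotientGroup.mk' N with hq
  have hcomm : ∀ g h : G, ⁅g, h⁆ ∈ commutator G := fun g h =>
    commutator_mem_commutator (mem_top g) (mem_top h)
  have hcen : ∀ c ∈ commutator G, ∀ g : G, Commute (q c) (q g) := fun c hc g => by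
    show q c * q g = q g * q c
    rw [← commutatorElement_eq_one_iff_mul_comm, ← map_commutatorElement]
    exact (QuotientGroup.eq_one_iff _).2
      ((le_sup_right : _ ≤ N) (subset_normalClosure (Or.inl ⟨c, hc, g, rfl⟩)))
  have hpw : ∀ c ∈ commutator G, (q c) ^ p = 1 := fun c hc => by
    rw [← map_pow]
    exact (QuotientGroup.eq_one_iff _).2
      ((le_sup_right : _ ≤ N) (subset_normalClosure (Or.inr ⟨c, hc, rfl⟩)))
  let B : G → (G →* G ⧸ N) := fun h =>
    { toFun := fun x => q ⁅x, h⁆
      map_one' := by simp [commutatorElement_def]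
      map_mul' := fun x y => by
        have he : ⁅x * y, h⁆ = (x * ⁅y, h⁆ * x⁻¹) * ⁅x, h⁆ := by
          rw [commutatorElement_def, commutatorElement_def, commutatorElement_def]; group
        rw [he, map_mul, map_mul, map_mul, map_inv, ((hcen _ (hcomm y h)) x).symm.eq,
          mul_inv_cancel_right]
        exact ((hcen _ (hcomm y h)) ⁅x, h⁆).eq }
  have hB : ∀ h x : G, B h x = (B x h)⁻¹ := fun h x => by
    show q ⁅x, h⁆ = (q ⁅h, x⁆)⁻¹
    rw [← map_inv, commutatorElement_inv]
  have hBM : ∀ x ∈ M, ∀ y ∈ M, B x y = 1 := fun x hx y hy => by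
    show q ⁅y, x⁆ = 1
    exact (QuotientGroup.eq_one_iff _).2 ((le_sup_left : _ ≤ N) (commutator_mem_commutator hy hx))
  have hrow : ∀ (T : Subgroup (G ⧸ N)) (r : G), r ∈ M → B a r ∈ T → ∀ g : G, B r g ∈ T := by
    intro T r hr hra
    have : M ⊔ zpowers a ≤ T.comap (B r) := sup_le
      (fun x hx => by rw [mem_comap, hBM r hr x hx]; exact one_mem _)
      (zpowers_le.2 (by rw [mem_comap, hB r a]; exact inv_mem hra))
    exact fun g => this (htop ▸ mem_top g)
  have hfull : ∀ g h : G, B h g ∈ (B a).range := by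
    intro g h
    have : M ⊔ zpowers a ≤ (B a).range.comap (B h) := sup_le
      (fun x hx => by rw [mem_comap, hB h x]; exact inv_mem (hrow (B a).range x hx (MonoidHom.mem_range.2 ⟨x, rfl⟩) h))
      (zpowers_le.2 (by rw [mem_comap, hB h a]; exact inv_mem ⟨h, rfl⟩))
    exact this (htop ▸ mem_top g)
  set L := (B a).ker with hL
  have haL : a ∈ L := by
    show q ⁅a, a⁆ = 1
    rw [commutatorElement_self, map_one]
  have hcL : commutator G ≤ L := by
    rw [_root_.commutator_def, commutator_le]
    intro g _ h _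
    show B a ⁅g, h⁆ = 1
    rw [map_commutatorElement, commutatorElement_eq_one_iff_mul_comm]
    exact (hcen _ (hcomm g a) ⁅h, a⁆).eq
  have hpL : ∀ x : G, x ^ p ∈ L := fun x => by
    show B a (x ^ p) = 1
    rw [map_pow]
    exact hpw _ (hcomm x a)
  haveI : L.Normal := MonoidHom.normal_ker _
  have hL1 : L ≠ ⊤ := by
    intro h
    apply hDne
    refine le_antisymm hDG ?_
    rw [_root_.commutator_def, commutator_le]
    intro g _ k _
    apply hND
    apply (QuotientGroup.eq_one_iff _).1
    show B k g = 1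
    obtain ⟨y, hy⟩ := hfull g k
    rw [← hy]
    exact MonoidHom.mem_ker.1 (show y ∈ L by rw [h]; trivial)
  have hfwd : ∀ J : Subgroup G, IsCoatom J → L ≤ J → IsBad p (J ⊓ M) ∧ J ≠ M := by
    intro J hJ hLJ
    have hne : J ≠ M := fun h => haM (h ▸ hLJ haL)
    have hMc := coatom_contains hG hM
    refine ⟨⟨le_inf (hcL.trans hLJ) hMc.1, fun x => ⟨hLJ (hpL x), hMc.2 x⟩, ?_, ?_⟩, hne⟩
    · have htop' : J ⊔ M = ⊤ := hJ.2 _ (left_lt_sup.2 fun h => hne ((hM.le_iff.1 h).resolve_left hJ.1))
      rw [← relIndex_mul_index (inf_le_left : J ⊓ M ≤ J), inf_relIndex_left, ← relIndex_sup_right J M,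
        htop', relIndex_top_right, H19.index_coatom_of_isPGroup hG hM,
        H19.index_coatom_of_isPGroup hG hJ, pow_two]
    · intro heq
      apply hJ.1
      have hsub : ⁅J ⊓ M, (⊤ : Subgroup G)⁆ ≤ (J.map (B a)).comap q := by
        rw [commutator_le]
        intro r hr g _
        show B g r ∈ J.map (B a)
        rw [hB g r]
        exact inv_mem (hrow (J.map (B a)) r hr.2 (mem_map_of_mem (B a) hr.1) g)
      rw [heq] at hsub
      rw [eq_top_iff]
      intro x _
      obtain ⟨y, hy, hyx⟩ : B a x ∈ J.map (B a) := hsub (hcomm x a)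
      have : y⁻¹ * x ∈ L := by
        show B a (y⁻¹ * x) = 1
        rw [map_mul, map_inv, hyx, inv_mul_cancel]
      have := J.mul_mem hy (hLJ this)
      rwa [mul_inv_cancel_left] at this
  have hbwd : ∀ R : Subgroup G, IsBad p R → R ≤ M → IsCoatom (R ⊔ zpowers a) ∧ L ≤ R ⊔ zpowers a := by
    rintro R ⟨hc, hpow, hidx, hne⟩ hRM
    haveI : R.Normal := Normal.of_commutator_le _ hc
    have haR : a ∉ R := fun h => haM (hRM h)
    have hJ := isCoatom_bad_sup hc hpow hidx haR
    refine ⟨hJ, ?_⟩
    by_contra hLJ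
    have hJL : (R ⊔ zpowers a) ⊔ L = ⊤ := hJ.2 _ (left_lt_sup.2 hLJ)
    have hRC : ⁅R, (⊤ : Subgroup G)⁆ ≤ commutator G := by
      rw [_root_.commutator_def]; exact commutator_mono le_top le_top
    obtain ⟨E, hEn, hRE, hEG, hEne, hE1, hE2⟩ :=
      exists_proper_central_elementary hG ⁅R, (⊤ : Subgroup G)⁆ hRC hne
    obtain ⟨m, hmM, hmR⟩ := SetLike.exists_of_lt (lt_of_le_of_ne hRM fun h => by
      have := H19.index_coatom_of_isPGroup hG hM
      rw [← h, hidx] at this
      exact absurd (Nat.pow_eq_self_iff hp.out.one_lt |>.1 this) (by norm_num))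
    have hMeq : R ⊔ zpowers m = M :=
      ((isCoatom_bad_sup hc hpow hidx hmR).le_iff.1 (sup_le hRM (zpowers_le.2 hmM))).resolve_left hM.1 |>.symm
    have hNE : N ≤ E := sup_le
      (by rw [← hMeq]; exact (commutator_sup_zpowers_le m).trans hRE)
      (normalClosure_le_normal (by
        rintro z (⟨c, hc', g, rfl⟩ | ⟨c, hc', rfl⟩)
        · exact hE1 c hc' g
        · exact hE2 c hc'))
    apply hEne
    refine le_antisymm hEG ?_
    rw [_root_.commutator_def, commutator_le]
    intro g _ k _
    obtain ⟨y, hy⟩ := hfull g k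
    have hyv : y ∈ (R ⊔ zpowers a) ⊔ L := hJL ▸ mem_top y
    have hyE : B a y ∈ E.map q := by
      have : (R ⊔ zpowers a) ⊔ L ≤ (E.map q).comap (B a) := sup_le (sup_le
        (fun r hr => ⟨⁅r, a⁆, hRE (commutator_mem_commutator hr (mem_top a)), rfl⟩)
        (zpowers_le.2 (by rw [mem_comap, show B a a = 1 from haL]; exact one_mem _)))
        (fun r hr => by rw [mem_comap, show B a r = 1 from hr]; exact one_mem _)
      exact this hyv
    rw [hy] at hyE
    have : ⁅g, k⁆ ∈ (E.map q).comap q := hyE
    rwa [comap_map_eq, QuotientGroup.ker_mk', sup_eq_left.2 hNE] at this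
  let e : {J : Subgroup G // IsCoatom J ∧ L ≤ J} ≃ {R : Subgroup G // IsBad p R ∧ R ≤ M} :=
    { toFun := fun J => ⟨J.1 ⊓ M, (hfwd J.1 J.2.1 J.2.2).1, inf_le_right⟩
      invFun := fun R => ⟨R.1 ⊔ zpowers a, hbwd R.1 R.2.1 R.2.2⟩
      left_inv := fun J => Subtype.ext (by
        simp only
        obtain ⟨hb, -⟩ := hfwd J.1 J.2.1 J.2.2
        exact ((isCoatom_bad_sup hb.1 hb.2.1 hb.2.2.1 (fun h => haM h.2)).le_iff.1
          (sup_le inf_le_left (zpowers_le.2 (J.2.2 haL)))).resolve_left J.2.1.1 |>.symm)
      right_inv := fun R => Subtype.ext (by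
        simp only
        exact inf_eq_of_index hG (hbwd R.1 R.2.1 R.2.2).1 hM
          (fun h => haM (h ▸ (le_sup_right : _ ≤ R.1 ⊔ zpowers a) (mem_zpowers a)))
          le_sup_left R.2.2 R.2.1.2.2.1) }
  rw [← Nat.card_congr e]
  exact card_coatoms_above_modEq_one hG L hL1

/-- If every maximal subgroup other than `K` has a smaller derived subgroup than `G`, so has `K`. -/
theorem commutator_ne_of_forall_ne (hG : IsPGroup p G) (hab : commutator G ≠ ⊥) {K : Subgroup G}
    (hK : IsCoatom K) (hall : ∀ M : Subgroup G, IsCoatom M → M ≠ K → ⁅M, M⁆ ≠ commutator G) :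
    ⁅K, K⁆ ≠ commutator G := by
  classical
  haveI := hG.isNilpotent
  haveI : Fintype (Subgroup G) := Fintype.ofFinite _
  intro hKK
  have hnone : ∀ R : Subgroup G, IsBad p R → ¬ R ≤ K := by
    rintro R ⟨hc, hpow, hidx, hne⟩ hRK
    haveI : R.Normal := Normal.of_commutator_le _ hc
    obtain ⟨m, hmK, hmR⟩ := SetLike.exists_of_lt (lt_of_le_of_ne hRK fun h => by
      have := H19.index_coatom_of_isPGroup hG hK
      rw [← h, hidx] at this
      exact absurd (Nat.pow_eq_self_iff hp.out.one_lt |>.1 this) (by norm_num))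
    have hKeq : R ⊔ zpowers m = K :=
      ((isCoatom_bad_sup hc hpow hidx hmR).le_iff.1 (sup_le hRK (zpowers_le.2 hmK))).resolve_left hK.1 |>.symm
    apply hne
    refine le_antisymm ?_ ?_
    · rw [_root_.commutator_def]; exact commutator_mono le_top le_top
    · rw [← hKK, ← hKeq]; exact commutator_sup_zpowers_le m
  set Bad := Finset.univ.filter (fun R : Subgroup G => IsBad p R) with hBad
  have key : ∀ g : G, (Bad.card : ZMod p) = 1 - (if g ∈ K then 1 else 0) := by
    intro g
    set Max := Finset.univ.filter (fun M : Subgroup G => IsCoatom M ∧ g ∈ M) with hMax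
    have hdc := Finset.sum_card_bipartiteAbove_eq_sum_card_bipartiteBelow
      (s := Max) (t := Bad) (fun M R : Subgroup G => R ≤ M)
    have hright : ∀ R ∈ Bad,
        ((Finset.bipartiteBelow (fun M R : Subgroup G => R ≤ M) Max R).card : ZMod p) = 1 := by
      intro R hR
      obtain ⟨hc, hpow, hidx, -⟩ := (Finset.mem_filter.1 hR).2
      haveI : R.Normal := Normal.of_commutator_le _ hc
      haveI : (R ⊔ zpowers g).Normal := Normal.of_commutator_le _ (hc.trans le_sup_left)
      have hne : R ⊔ zpowers g ≠ ⊤ := by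
        intro h
        have h1 := H19.relIndex_sup_zpowers_dvd R (hpow g)
        rw [h, relIndex_top_right, hidx] at h1
        have := Nat.le_of_dvd hp.out.pos h1
        have h2 := hp.out.two_le
        nlinarith
      have h1 := card_coatoms_above_modEq_one hG _ hne
      rw [Nat.card_eq_fintype_card, Fintype.card_subtype] at h1
      have h2 : Finset.bipartiteBelow (fun M R : Subgroup G => R ≤ M) Max R =
          Finset.univ.filter (fun M : Subgroup G => IsCoatom M ∧ R ⊔ zpowers g ≤ M) := by
        ext M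
        simp only [Finset.mem_bipartiteBelow, hMax, Finset.mem_filter, Finset.mem_univ, true_and,
          sup_le_iff, zpowers_le]
        tauto
      rw [h2]
      simpa using (ZMod.natCast_eq_natCast_iff _ 1 p).2 h1
    have hleft : ∀ M ∈ Max,
        ((Finset.bipartiteAbove (fun M R : Subgroup G => R ≤ M) Bad M).card : ZMod p)
          = 1 - (if M = K then 1 else 0) := by
      intro M hM
      by_cases hMK : M = K
      · subst hMK
        rw [if_pos rfl, sub_self]
        have : Finset.bipartiteAbove (fun M R : Subgroup G => R ≤ M) Bad M = ∅ := by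
          ext R
          simp only [Finset.mem_bipartiteAbove, hBad, Finset.mem_filter, Finset.mem_univ, true_and,
            Finset.notMem_empty, iff_false, not_and]
          exact hnone R
        rw [this]; simp
      · rw [if_neg hMK, sub_zero]
        have h1 := card_bad_below_modEq_one hG (Finset.mem_filter.1 hM).2.1
          (hall M (Finset.mem_filter.1 hM).2.1 hMK)
        rw [Nat.card_eq_fintype_card, Fintype.card_subtype] at h1
        have h2 : Finset.bipartiteAbove (fun M R : Subgroup G => R ≤ M) Bad M =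
            Finset.univ.filter (fun R : Subgroup G => IsBad p R ∧ R ≤ M) := by
          ext R
          simp only [Finset.mem_bipartiteAbove, hBad, Finset.mem_filter, Finset.mem_univ, true_and]
        rw [h2]
        simpa using (ZMod.natCast_eq_natCast_iff _ 1 p).2 h1
    have hMaxcard : (Max.card : ZMod p) = 1 := by
      haveI : (frattini G ⊔ zpowers g).Normal :=
        Normal.of_commutator_le _ ((H19.commutator_pow_mem_frattini hG).1.trans le_sup_left)
      have hne : frattini G ⊔ zpowers g ≠ ⊤ := by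
        intro h
        apply hab
        have hgen : zpowers g = ⊤ := frattini_nongenerating (by rw [sup_comm]; exact h)
        rw [eq_bot_iff, _root_.commutator_def, commutator_le]
        intro x _ y _
        obtain ⟨i, rfl⟩ : x ∈ zpowers g := hgen ▸ mem_top x
        obtain ⟨j, rfl⟩ : y ∈ zpowers g := hgen ▸ mem_top y
        exact mem_bot.2 (commutatorElement_eq_one_iff_mul_comm.2
          (Commute.zpow_zpow (Commute.refl g) i j).eq)
      have h1 := card_coatoms_above_modEq_one hG _ hne
      rw [Nat.card_eq_fintype_card, Fintype.card_subtype] at h1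
      have h2 : Max = Finset.univ.filter
          (fun M : Subgroup G => IsCoatom M ∧ frattini G ⊔ zpowers g ≤ M) := by
        ext M
        simp only [hMax, Finset.mem_filter, Finset.mem_univ, true_and, sup_le_iff, zpowers_le]
        exact ⟨fun h => ⟨h.1, frattini_le_coatom h.1, h.2⟩, fun h => ⟨h.1, h.2.2⟩⟩
      rw [h2]
      simpa using (ZMod.natCast_eq_natCast_iff _ 1 p).2 h1
    have hcast : (∑ M ∈ Max, ((Finset.bipartiteAbove (fun M R : Subgroup G => R ≤ M) Bad M).card : ZMod p))
        = ∑ R ∈ Bad, ((Finset.bipartiteBelow (fun M R : Subgroup G => R ≤ M) Max R).card : ZMod p) := by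
      have := congrArg (Nat.cast : ℕ → ZMod p) hdc
      rw [Nat.cast_sum, Nat.cast_sum] at this
      exact this
    rw [Finset.sum_congr rfl hleft, Finset.sum_congr rfl hright, Finset.sum_sub_distrib,
      Finset.sum_const, Finset.sum_const, nsmul_one, nsmul_one, hMaxcard, Finset.sum_ite_eq'] at hcast
    rw [← hcast]
    simp [hMax, hK]
  obtain ⟨g, -, hg⟩ := SetLike.exists_of_lt (lt_top_iff_ne_top.2 hK.1)
  have h1 := key 1
  have h2 := key g
  rw [if_pos K.one_mem, sub_self] at h1
  rw [if_neg hg, sub_zero, h1] at h2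
  exact one_ne_zero h2.symm

end PGroup

universe u

/-- Vaughan-Lee, in the strengthened form: it suffices that the elements outside some proper
subgroup have breadth at most `b`. -/
theorem card_commutator_le_of_outside {p : ℕ} [hp : Fact p.Prime] :
    ∀ (n : ℕ) (G : Type u) [Group G] [Finite G], Nat.card G = n → IsPGroup p G →
      ∀ (b : ℕ) (K : Subgroup G), K ≠ ⊤ →
        (∀ x : G, x ∉ K → (centralizer ({x} : Set G)).index ≤ p ^ b) →
        Nat.card ↥(commutator G) ≤ p ^ (b * (b + 1) / 2) := by
  intro n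
  induction n using Nat.strong_induction_on with
  | _ n ih =>
  intro G _ _ hn hG b K hK hb
  subst hn
  by_cases hab : commutator G = ⊥
  · rw [hab, Nat.card_eq_one_iff_unique.2 ⟨inferInstance, inferInstance⟩]
    exact Nat.one_le_pow _ _ hp.out.pos
  haveI := hG.isNilpotent
  obtain ⟨K₁, hK₁, hKK₁⟩ : ∃ K₁ : Subgroup G, IsCoatom K₁ ∧ K ≤ K₁ := by
    rcases eq_top_or_exists_le_coatom K with h | h
    · exact absurd h hK
    · exact h
  replace hb : ∀ x : G, x ∉ K₁ → (centralizer ({x} : Set G)).index ≤ p ^ b :=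
    fun x hx => hb x fun h => hx (hKK₁ h)
  have hcentM : ∀ (H : Subgroup G) (x : ↥H), (centralizer ({x} : Set ↥H)).index =
      (centralizer ({(x : G)} : Set G)).relIndex H := fun H x => by
    have : centralizer ({x} : Set ↥H) = (centralizer ({(x : G)} : Set G)).subgroupOf H := by
      ext y
      rw [mem_subgroupOf, mem_centralizer_singleton_iff, mem_centralizer_singleton_iff,
        ← Subgroup.coe_mul, ← Subgroup.coe_mul, Subtype.coe_inj]
    rw [this]; rfl
  have hlt : ∀ H : Subgroup G, H ≠ ⊤ → Nat.card ↥H < Nat.card G := fun H hH =>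
    lt_of_le_of_ne (Subgroup.card_le_card_group H) fun h => hH (Subgroup.eq_top_of_card_eq H h)
  have hcard : ∀ H : Subgroup G, Nat.card ↥(commutator ↥H) = Nat.card ↥⁅H, H⁆ := fun H => by
    rw [← map_subtype_commutator, Subgroup.card_map_of_injective H.subtype_injective]
  by_cases hsame : ∃ M : Subgroup G, IsCoatom M ∧ M ≠ K₁ ∧ ⁅M, M⁆ = commutator G
  · obtain ⟨M, hM, hMK, hMM⟩ := hsame
    have h := ih _ (hlt M hM.1) ↥M rfl (hG.to_subgroup M) b (K₁.subgroupOf M)
      (fun h => hMK ((hM.le_iff.1 (subgroupOf_eq_top.1 h)).resolve_left hK₁.1).symm)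
      (fun x hx => by
        rw [hcentM]
        refine le_trans ?_ (hb (x : G) (by rwa [mem_subgroupOf] at hx))
        rw [← relIndex_top_right]
        exact relIndex_le_of_le_right le_top
          (by rw [relIndex_top_right]; exact index_ne_zero_of_finite))
    rwa [hcard, hMM] at h
  push Not at hsame
  have hK' := commutator_ne_of_forall_ne hG hab hK₁ hsame
  obtain ⟨⟨R, ⟨hc, hpow, hidx, hne⟩, hRK⟩⟩ :
      Nonempty {R : Subgroup G // IsBad p R ∧ R ≤ K₁} := by
    by_contra hem
    rw [not_nonempty_iff] at hem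
    have := card_bad_below_modEq_one hG hK₁ hK'
    rw [Nat.card_of_isEmpty] at this
    exact absurd this (by
      simp [Nat.ModEq, Nat.zero_mod, Nat.mod_eq_of_lt hp.out.one_lt])
  haveI : R.Normal := Normal.of_commutator_le _ hc
  obtain ⟨a, -, haK⟩ := SetLike.exists_of_lt (lt_top_iff_ne_top.2 hK₁.1)
  have haR : a ∉ R := fun h => haK (hRK h)
  set J := R ⊔ zpowers a with hJdef
  have hJ : IsCoatom J := isCoatom_bad_sup hc hpow hidx haR
  have hJK : J ≠ K₁ := fun h => haK (h ▸ (le_sup_right : _ ≤ J) (mem_zpowers a))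
  have hJR : J ⊓ K₁ = R := inf_eq_of_index hG hJ hK₁ hJK le_sup_left hRK hidx
  haveI := H19.coatom_normal_of_nilpotent hJ
  have hcle : ∀ m ∈ J, m ∉ R → centralizer ({m} : Set G) ≤ J := by
    intro m hmJ hmR c hc'
    by_contra hcJ
    have hJeq : R ⊔ zpowers m = J :=
      ((isCoatom_bad_sup hc hpow hidx hmR).le_iff.1
        (sup_le le_sup_left (zpowers_le.2 hmJ))).resolve_left hJ.1 |>.symm
    have htop : J ⊔ zpowers c = ⊤ := hJ.2 _ (left_lt_sup.2 fun h => hcJ (h (mem_zpowers c)))
    apply hne
    refine le_antisymm ?_ ?_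
    · rw [_root_.commutator_def]; exact commutator_mono le_top le_top
    set q := QuotientGroup.mk' ⁅R, (⊤ : Subgroup G)⁆ with hq
    have hcen : ∀ r ∈ R, ∀ g : G, Commute (q r) (q g) := fun r hr g => by
      show q r * q g = q g * q r
      rw [← commutatorElement_eq_one_iff_mul_comm, ← map_commutatorElement]
      exact (QuotientGroup.eq_one_iff _).2 (commutator_mem_commutator hr (mem_top g))
    have hmc : Commute (q c) (q m) := by
      show q c * q m = q m * q c
      rw [← map_mul, ← map_mul, mem_centralizer_singleton_iff.1 hc']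
    have hmk : ∀ x : G, x = m ∨ x = c → ∀ g : G, Commute (q x) (q g) := by
      intro x hx g
      have : J ⊔ zpowers c ≤ (centralizer ({q x} : Set _)).comap q := by
        refine sup_le ?_ (zpowers_le.2 ?_)
        · rw [← hJeq]
          refine sup_le (fun r hr => ?_) (zpowers_le.2 ?_)
          · rw [mem_comap, mem_centralizer_singleton_iff]; exact (hcen r hr x).eq
          · rw [mem_comap, mem_centralizer_singleton_iff]
            rcases hx with rfl | rfl
            · rfl
            · exact hmc.eq.symm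
        · rw [mem_comap, mem_centralizer_singleton_iff]
          rcases hx with rfl | rfl
          · exact hmc.eq
          · rfl
      exact (mem_centralizer_singleton_iff.1 (this (htop ▸ mem_top g))).symm
    have hall : ∀ g : G, q g ∈ center (G ⧸ ⁅R, (⊤ : Subgroup G)⁆) := by
      have : J ⊔ zpowers c ≤ (center (G ⧸ ⁅R, (⊤ : Subgroup G)⁆)).comap q := by
        rw [← hJeq]
        refine sup_le (sup_le (fun r hr => ?_) (zpowers_le.2 ?_)) (zpowers_le.2 ?_) <;>
          rw [mem_comap, mem_center_iff] <;> intro y <;>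
          obtain ⟨y, rfl⟩ := QuotientGroup.mk'_surjective _ y
        · exact (hcen r hr y).eq.symm
        · exact (hmk m (Or.inl rfl) y).eq.symm
        · exact (hmk c (Or.inr rfl) y).eq.symm
      exact fun g => this (htop ▸ mem_top g)
    rw [_root_.commutator_def, commutator_le]
    intro g _ h _
    apply (QuotientGroup.eq_one_iff _).1
    show q ⁅g, h⁆ = 1
    rw [map_commutatorElement, commutatorElement_eq_one_iff_mul_comm]
    exact (mem_center_iff.1 (hall g) (q h)).symm
  have hdrop : ∀ m ∈ J, m ∉ R → (centralizer ({m} : Set G)).relIndex J * p ≤ p ^ b := by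
    intro m hmJ hmR
    have h := relIndex_mul_index (hcle m hmJ hmR)
    rw [H19.index_coatom_of_isPGroup hG hJ] at h
    rw [h]
    exact hb m fun hmK => hmR (hJR ▸ ⟨hmJ, hmK⟩)
  obtain ⟨c, rfl⟩ : ∃ c, b = c + 1 := by
    refine ⟨b - 1, ?_⟩
    rcases Nat.eq_zero_or_pos b with rfl | h
    · have h1 := hdrop a ((le_sup_right : _ ≤ J) (mem_zpowers a)) haR
      rw [pow_zero] at h1
      have h2 : (centralizer ({a} : Set G)).relIndex J ≠ 0 := index_ne_zero_of_finite
      have h3 := Nat.le_mul_of_pos_left p (Nat.pos_of_ne_zero h2)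
      have := hp.out.two_le
      omega
    · omega
  have hJlt := hlt J hJ.1
  have hind := ih _ hJlt ↥J rfl (hG.to_subgroup J) c (R.subgroupOf J)
    (fun h => haR (subgroupOf_eq_top.1 h ((le_sup_right : _ ≤ J) (mem_zpowers a))))
    (fun x hx => by
      rw [hcentM]
      have := hdrop (x : G) x.2 (by rwa [mem_subgroupOf] at hx)
      rw [pow_succ] at this
      exact Nat.le_of_mul_le_mul_right this hp.out.pos)
  rw [hcard] at hind
  obtain ⟨k, hkK, hkJ⟩ : ∃ k ∈ K₁, k ∉ J := by
    by_contra h
    push Not at h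
    exact hJK ((hK₁.le_iff.1 h).resolve_left hJ.1)
  have haJ : a ∈ J := (le_sup_right : _ ≤ J) (mem_zpowers a)
  have hakJ : a * k ∉ J := fun h => hkJ (by simpa using J.mul_mem (J.inv_mem haJ) h)
  have hakK : a * k ∉ K₁ := fun h => haK (by simpa using K₁.mul_mem h (K₁.inv_mem hkK))
  have hstep := card_commutator_le_step J (a * k)
    (hJ.2 _ (left_lt_sup.2 fun h => hakJ (h (mem_zpowers _))))
  refine hstep.trans ((Nat.mul_le_mul hind (hb _ hakK)).trans (le_of_eq ?_))
  rw [← pow_add]
  congr 1
  rw [show (c + 1) * (c + 1 + 1) = c * (c + 1) + 2 * (c + 1) by ring, Nat.add_mul_div_left _ _ two_pos]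

end Cfsg.Agent.H85
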